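import Cfsg.Agent.H313.AltDeg.Kill

/-!
# Excluding multiples of a list of degrees (helper313)

`Killed2 p L` : for no `n` and `k ≥ 2` with `k (p - 1) ≤ n - 1` all the numbers `k d`, `d ∈ L`, or their doubles, are
degrees of `A_n`.
-/

set_option autoImplicit false
set_option linter.unusedSectionVars false

namespace Cfsg.Agent.H313.AD

open Finset Cfsg.Agent.H704

/-- `f (lo + i) = true` for all `i < len` (with fuel) -/
def allB (f : ℕ → Bool) : ℕ → ℕ → ℕ → Bool
  | 0, _, len => Nat.beq len 0
  | (k + 1), lo, len =>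
    if Nat.ble len 1 then (Nat.beq len 0 || f lo)
    else allB f k lo (len / 2) && allB f k (lo + len / 2) (len - len / 2)

theorem allB_sound (f : ℕ → Bool) : ∀ (k lo len : ℕ), allB f k lo len = true → ∀ i < len, f (lo + i) = true := by
  intro k
  induction k with
  | zero =>
    intro lo len h i hi
    rw [allB, Nat.beq_eq] at h
    omega
  | succ k ih =>
    intro lo len h i hi
    rw [allB] at h
    split_ifs at h with h1
    · rw [Nat.ble_eq] at h1
      obtain rfl : i = 0 := by omega
      obtain rfl : len = 1 := by omega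
      simpa using h
    · rw [Bool.and_eq_true] at h
      rcases Nat.lt_or_ge i (len / 2) with h2 | h2
      · exact ih _ _ h.1 i h2
      · have := ih _ _ h.2 (i - len / 2) (by omega)
        rwa [show lo + len / 2 + (i - len / 2) = lo + i by omega] at this

/-- no `n`, `k` : all the `k d`, up to a factor two, are degrees of `A_n` -/
def Killed2 (p : ℕ) (L : List ℕ) : Prop :=
  ∀ n k : ℕ, 7 ≤ n → 2 ≤ k → k * (p - 1) ≤ n - 1 → (∀ d ∈ L, AltDeg n (k * d) ∨ AltDeg n (2 * (k * d))) → False

/-- the check at one `n` -/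
def kchk (p a : ℕ) (L : List ℕ) (n : ℕ) : Bool :=
  (Nat.ble 23 n && Nat.ble (12 * a + 1) ((p - 1) * (n * (n - 5))) && !(Nat.beq (Nat.mod (n * (n - 3)) a) 0) &&
    !(Nat.beq (Nat.mod ((n - 1) * (n - 2)) a) 0)) ||
  allB (fun k => L.any fun d => Nat.ble 1 d && !(ok n (k * d)) && !(ok n (2 * (k * d)))) 20 2 ((n - 1) / (p - 1) - 1)

/-- the condition on the parameters -/
def kpar (p a b N : ℕ) (L : List ℕ) : Bool :=
  Nat.ble 3 p && Nat.ble 11 a && Nat.ble 1 b && L.any (Nat.beq a) && L.any (Nat.beq b) &&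
  Nat.ble (4 * a) ((p - 1) * (N - 3)) && Nat.ble (2 * b) (a * (a - 1)) && Nat.ble 23 N &&
  !(Nat.beq a b) && !(Nat.beq a (2 * b)) && !(Nat.beq b (2 * a))

theorem killed2_of {p a b N : ℕ} {L : List ℕ} (h1 : kpar p a b N L = true)
    (h2 : allB (kchk p a L) 30 (2 * p - 1) (N - (2 * p - 1)) = true) : Killed2 p L := by
  intro n k hn7 hk2 hkp hA
  unfold kpar at h1
  simp only [Bool.and_eq_true, Nat.ble_eq, List.any_eq_true, Bool.not_eq_true', Nat.beq_eq] at h1
  obtain ⟨⟨⟨⟨⟨⟨⟨⟨⟨⟨hp3, ha11⟩, hb1⟩, a', ha, rfl⟩, b', hb, rfl⟩, hN⟩, hab0⟩, hN23⟩, hab⟩, hab2⟩, hba2⟩ := h1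
  have q1 : a ≠ b := fun h => by rw [h, Nat.beq_refl] at hab; exact absurd hab (by decide)
  have q2 : a ≠ 2 * b := fun h => by rw [h, Nat.beq_refl] at hab2; exact absurd hab2 (by decide)
  have q3 : b ≠ 2 * a := fun h => by rw [h, Nat.beq_refl] at hba2; exact absurd hba2 (by decide)
  have hnp : 2 * (p - 1) ≤ n - 1 := (Nat.mul_le_mul_right _ hk2).trans hkp
  have hka : 2 * a ≤ k * a := Nat.mul_le_mul_right _ hk2
  have hkb : 2 * b ≤ k * b := Nat.mul_le_mul_right _ hk2
  -- the last step
  have key : k * a = n - 1 ∨ 2 * (k * a) = n - 1 → False := by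
    intro h
    have hn1 : k * a ≤ n - 1 := by omega
    have hn23 : 23 ≤ n := by omega
    have h3 : 2 * (2 * (k * b)) < n * (n - 3) := by
      obtain ⟨m, rfl⟩ := Nat.exists_eq_add_of_le hn23
      obtain ⟨c, rfl⟩ := Nat.exists_eq_add_of_le ha11
      rw [show 23 + m - 1 = m + 22 by omega] at hn1
      rw [show 23 + m - 3 = m + 20 by omega]
      rw [show 11 + c - 1 = c + 10 by omega] at hab0
      have e1 : 4 * (k * b) * (11 + c) ≤ 4 * b * (m + 22) := by nlinarith
      have e2 : 4 * b * (m + 22) ≤ 2 * ((11 + c) * (c + 10)) * (m + 22) := Nat.mul_le_mul_right _ (by omega)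
      have e3 : 2 * (c + 10) ≤ m + 20 := by omega
      have e4 : 2 * ((11 + c) * (c + 10)) * (m + 22) ≤ (11 + c) * ((m + 20) * (m + 22)) := by
        calc 2 * ((11 + c) * (c + 10)) * (m + 22) = (11 + c) * (2 * (c + 10) * (m + 22)) := by ring
          _ ≤ _ := Nat.mul_le_mul_left _ (Nat.mul_le_mul_right _ e3)
      have e5 : 4 * (k * b) * (11 + c) < (11 + c) * ((23 + m) * (m + 20)) := by nlinarith
      nlinarith
    have h4 : k * b = n - 1 ∨ 2 * (k * b) = n - 1 := by
      rcases hA b hb with h5 | h5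
      · exact Or.inl (eq_of_large hn23 (by omega) h5 (by omega))
      · exact Or.inr (eq_of_large hn23 (by omega) h5 (by omega))
    have hk0 : 0 < k := by omega
    rcases h with h | h <;> rcases h4 with h4 | h4
    · exact q1 (Nat.eq_of_mul_eq_mul_left hk0 (h.trans h4.symm))
    · exact q2 (Nat.eq_of_mul_eq_mul_left hk0 (by rw [h, ← h4]; ring))
    · exact q3 (Nat.eq_of_mul_eq_mul_left hk0 (by rw [h4, ← h]; ring))
    · exact q1 (Nat.eq_of_mul_eq_mul_left hk0 (by omega))
  rcases Nat.lt_or_ge n N with hnN | hnN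
  · have h3 := allB_sound _ _ _ _ h2 (n - (2 * p - 1)) (by omega)
    rw [show 2 * p - 1 + (n - (2 * p - 1)) = n by omega] at h3
    unfold kchk at h3
    rw [Bool.or_eq_true] at h3
    rcases h3 with h3 | h3
    · simp only [Bool.and_eq_true, Nat.ble_eq, Bool.not_eq_true'] at h3
      obtain ⟨⟨⟨hn23, h4⟩, h5⟩, h6⟩ := h3
      have h5' : ¬ a ∣ n * (n - 3) := fun h => by
        rw [show Nat.mod (n * (n - 3)) a = 0 from Nat.mod_eq_zero_of_dvd h] at h5
        exact absurd h5 (by decide)
      have h6' : ¬ a ∣ (n - 1) * (n - 2) := fun h => by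
        rw [show Nat.mod ((n - 1) * (n - 2)) a = 0 from Nat.mod_eq_zero_of_dvd h] at h6
        exact absurd h6 (by decide)
      have hlt : 12 * (k * a) < n * (n - 1) * (n - 5) := by
        have e1 : 12 * (k * a) * (p - 1) ≤ 12 * a * (n - 1) := by
          calc 12 * (k * a) * (p - 1) = 12 * a * (k * (p - 1)) := by ring
            _ ≤ _ := Nat.mul_le_mul_left _ hkp
        have e2 : 12 * a * (n - 1) < (p - 1) * (n * (n - 5)) * (n - 1) :=
          Nat.mul_lt_mul_of_pos_right (by omega) (by omega)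
        have e3 : 12 * (k * a) * (p - 1) < n * (n - 1) * (n - 5) * (p - 1) := by
          calc _ ≤ _ := e1
            _ < _ := e2
            _ = _ := by ring
        exact lt_of_mul_lt_mul_right e3 (Nat.zero_le _)
      have hx : ∀ x : ℕ, a ∣ x → 1 < x → 6 * x ≤ 12 * (k * a) → AltDeg n x → x = n - 1 := by
        intro x hax hx1 hx6 hx
        rcases alt_low (by omega) hx with h | h | h | h | h
        · omega
        · exact h
        · exact absurd (h ▸ Dvd.dvd.mul_left hax 2) h5'
        · exact absurd (h ▸ Dvd.dvd.mul_left hax 2) h6'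
        · omega
      apply key
      rcases hA a ha with h | h
      · exact Or.inl (hx _ (Dvd.intro_left _ rfl) (by omega) (by omega) h)
      · exact Or.inr (hx _ ⟨2 * k, by ring⟩ (by omega) (by omega) h)
    · have hk3 : k ≤ (n - 1) / (p - 1) := (Nat.le_div_iff_mul_le (by omega)).2 hkp
      have h4 := allB_sound _ _ _ _ h3 (k - 2) (by omega)
      rw [show 2 + (k - 2) = k by omega] at h4
      simp only [Bool.and_eq_true, Nat.ble_eq, List.any_eq_true, Bool.not_eq_true'] at h4
      obtain ⟨d, hd, ⟨h1d, h5⟩, h6⟩ := h4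
      have hkd : 2 * 1 ≤ k * d := Nat.mul_le_mul hk2 h1d
      rcases hA d hd with h | h
      · rw [ok_of hn7 (by omega) h] at h5
        exact absurd h5 (by decide)
      · rw [ok_of hn7 (by omega) h] at h6
        exact absurd h6 (by decide)
  · have h3 : 2 * (2 * (k * a)) < n * (n - 3) := by
      have e1 : 4 * (k * a) * (p - 1) ≤ 4 * a * (n - 1) := by
        calc 4 * (k * a) * (p - 1) = 4 * a * (k * (p - 1)) := by ring
          _ ≤ _ := Nat.mul_le_mul_left _ hkp
      have e2 : 4 * a * (n - 1) ≤ (p - 1) * (n - 3) * (n - 1) :=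
        Nat.mul_le_mul_right _ (hN.trans (Nat.mul_le_mul_left _ (by omega)))
      have e3 : (p - 1) * (n - 3) * (n - 1) < (p - 1) * (n - 3) * n :=
        Nat.mul_lt_mul_of_pos_left (by omega) (Nat.mul_pos (by omega) (by omega))
      have e4 : 4 * (k * a) * (p - 1) < n * (n - 3) * (p - 1) := by
        calc _ ≤ _ := e1
          _ ≤ _ := e2
          _ < _ := e3
          _ = _ := by ring
      have := lt_of_mul_lt_mul_right e4 (Nat.zero_le _)
      omega
    apply key
    rcases hA a ha with h | h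
    · exact Or.inl (eq_of_large (by omega) (by omega) h (by omega))
    · exact Or.inr (eq_of_large (by omega) (by omega) h (by omega))

end Cfsg.Agent.H313.AD
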